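import Cfsg.Agent.H6.Fi23R.N
import Cfsg.Agent.H6.Fi23R.A
import Cfsg.Agent.H6.Fi23R.B

set_option autoImplicit false
set_option maxRecDepth 100000
set_option Elab.async false

namespace Cfsg.H6.Fi23R

open Fi23

universe v

theorem lift22 : Lift.{v} Fi22.ev 42649378395939397566720 Fi22.R :=
  fun _ _ _ h h' => Fi22.lift h h'

theorem z9 : evL (evS ev s9) z = evL ev z := by
  rw [evL_subst, show subst s9 z = z by decide +kernel]

theorem c9 : ∀ l, Commute (evS ev s9 l) (evL ev z) := T.commS (by decide +kernel)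

theorem w9 (a : Spor.Fi23) (ha : Commute a (evL ev z)) :
    ∃ w, evL (evS ev s9) w = a ∨ evL (evS ev s9) w * evL ev z = a :=
  (T.words prim (σ := s9) (V := Ws) (A := [1,2,3,4,5,6,7,8,9]) (by decide +kernel) a ha).imp
    fun _ h => Or.inl h.2

theorem R22 : ∀ r ∈ Fi22.R, r ∈ Y332.R ∨ r = z := by decide +kernel

theorem m9 : ¬ Commute (evS ev s9 1) (evS ev s9 2) :=
  T.not_comm (u := [1]) (w := [2]) (by decide +kernel)

theorem emb {G : Type v} [Group G] {xs : ℕ → G} {d : G} (hx : Good xs 42649378395939397566720)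
    (hR : Rels xs Y332.R) (hz : evL xs z = d) (hd : d * d = 1) (n2 : d ≠ 1)
    (c2 : ∀ l, Commute (xs l) d) (s2 : ∀ a, Commute a d → ∃ w, evL xs w = a ∨ evL xs w * d = a)
    (m2 : ¬ Commute (xs 1) (xs 2)) :
    ∃ F, Emb0 (evL ev z) d F ∧ ∀ w, F (evL (evS ev s9) w) = evL xs w :=
  have := Fi22.simple
  emb_pattern lift22 hev9 hx z9 hz T.sq hd (hφ.mov (bs := bs) (by decide +kernel)) n2 c9 c2 w9 s2
    (fun r hr => (R22 r hr).imp (fun h => ⟨hR9 r h, hR r h⟩) fun h => by rw [h]; exact ⟨z9, hz⟩)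
    m9 m2

theorem ccl (x : Spor.Fi23) (hx : Commute x (evL ev z)) (hx2 : x * x = 1) :
    ∃ w ∈ Fi22I.Reps, ∃ k, Commute k (evL ev z) ∧
      (k⁻¹ * evL (evS ev s9) w * k = x ∨ k⁻¹ * (evL (evS ev s9) w * evL ev z) * k = x) :=
  have := Fi22.simple
  cover_classes hev9 Fi22.hev c9 w9 T.sq
    (fun _ => transfer2 lift22 hev9 Fi22.hev T.sq (one_mul 1) (fun _ => rfl) c9
      (fun _ => Commute.one_right _) (fun r hr => (R22 r hr).imp
        (fun h => ⟨hR9 r h, Fi22.hR r hr⟩) fun h => ⟨by rw [h]; exact z9, Fi22.hR r hr⟩) m9)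
    (fun _ => mem_two lift22 hev9 T.sq c9 fun r hr => (R22 r hr).imp (hR9 r)
      fun h => by rw [h]; exact z9)
    Fi22.hX (fun _ => Fi22I.classes) x hx hx2

theorem lc : LC (evL ev z) (evL ev [1]) := T.lc ccl (Rt := Rt) (by decide +kernel)

theorem cls (x : Spor.Fi23) (hx : x * x = 1) :
    ∃ w ∈ Fi22I.Reps.flatMap fun w => [subst s9 w, subst s9 w ++ z], IsConj x (evL ev w) := by
  have := finite
  obtain ⟨g, hg⟩ := exists_conj_mem_of_odd (T := gen ev Ws) (by rw [prim.index]; decide) (k := 1)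
    (x := x) (by rwa [pow_one, pow_two])
  rw [prim.stab, mem_fixS'] at hg
  obtain ⟨w, hw, k, _, e | e⟩ := ccl _ ((T.cent _).mp (hg 0 (by simp))) (sq_cj hx g)
  · refine ⟨_, List.mem_flatMap.mpr ⟨w, hw, List.mem_cons_self⟩, (isConj_cj x g).trans ?_⟩
    rw [← e, evL_subst]
    exact (isConj_cj _ k).symm
  · refine ⟨_, List.mem_flatMap.mpr ⟨w, hw, List.mem_cons_of_mem _ List.mem_cons_self⟩,
      (isConj_cj x g).trans ?_⟩
    rw [← e, evL_subst, evL_append]
    exact (isConj_cj _ k).symm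

theorem ff : FF (evL ev z) (evL ev [1]) (evL ev [3]) :=
  T.ff (e := e0) (f := f0) (t := t0) r3 (T.cls cls (CW := CW) (by decide +kernel))
    (T.triple r3 trig rfl rfl (by decide +kernel))
    (not_isConj_of_nfix hφ hX n1 n2 (by decide +kernel)) (r1 := r1) (r2 := r2) (ts := ts)
    (by decide +kernel)

theorem neW {u w : List ℕ}
    (h : movB img 31671 11 bs (u ++ invW 12131907574542231144628480 w) = true) :
    evL ev u ≠ evL ev w := fun e => hφ.mov h (by rw [evL_append, evL_invW hev, e, mul_inv_cancel])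

def s10 : List (List ℕ) := [[], [1], [2], [3], [4], [5], [6], [7], [8], [9], [10]]

theorem of_emb {G : Type v} [Group G] [Finite G] {d : G} {F : Spor.Fi23 → G}
    (hF : Emb0 (evL ev z) d F) (hd : d * d = 1) (hn : ∀ y, y * y ≠ d)
    (h1 : IsConj d (F (evL ev [1]))) : Nonempty (G ≃* Spor.Fi23) := by
  have := simple
  have n1 : evL ev [3] ≠ evL ev z := neW (by decide +kernel)
  have hE := hF.emb lc ff.te ff.ce hd hn r3.hp h1 (hF.not_both lc ff hn (r3.hp _ ff.cf ff.tf n1) n1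
    (neW (by decide +kernel)) (by rw [← evL_append]; exact neW (by decide +kernel))
    (by rw [← evL_append]; exact T.root (Rt := Rt) (by decide +kernel))
    (by rw [← evL_append, ← evL_append]; exact T.root (Rt := Rt) (by decide +kernel)) h1)
  obtain ⟨X1, a1, L1⟩ := (hE.locs T (Sg := Sg) (A := A0) (by decide +kernel)).extend T hE ahS arig aext
  obtain ⟨X2, a2, L2⟩ := L1.extend T hE bhS brig bext
  obtain ⟨Φ, hΦ⟩ := lift (L2.good main.2.2 (s := s10) (by decide +kernel))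
    (L2.relsS main.2.2 (by decide +kernel))
  have k : ∀ l ∈ A0, l ≠ 99 ∧ l ≠ 10 := by decide
  exact L2.finish T ff hF hn (A := A0) (fun l hl => by rw [a2 l (k l hl).1, a1 l (k l hl).2]) Φ hΦ
    (T.words prim (V := Ws) (by decide +kernel)) (by decide +kernel)

def sT : List (List ℕ) := [] :: [7,6,5,4,3,2,1,8,9].map fun l => l :: z

theorem twist : ∃ F, Emb0 (evL ev z) (evL ev z) F ∧ F (evL ev [1]) = evL ev [7] * evL ev z := by
  obtain ⟨F, h, e⟩ := emb (xs := evS ev sT) (d := evL ev z) (main.2.2.good_evS (by decide +kernel))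
    (main.2.2.rels_evS (by decide +kernel)) (by rw [evL_subst]; exact T.eq (by decide +kernel))
    T.sq ff.ne (T.commS (by decide +kernel)) (fun a ha => (T.words prim (σ := sT) (V := sT)
      (A := [1,2,3,4,5,6,7,8,9]) (by decide +kernel) a ha).imp fun _ h => Or.inl h.2)
    (T.not_comm (u := 7 :: z) (w := 6 :: z) (by decide +kernel))
  refine ⟨F, h, ?_⟩
  have := e [1]
  rw [evL_singleton, evL_singleton] at this
  rw [← evL_append]
  exact this

theorem result {G : Type v} [Group G] [Finite G] (d : G) (hd : orderOf d = 2)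
    (hq : commutator (Subgroup.centralizer ({d} : Set G)) = ⊤)
    [((Subgroup.zpowers d).subgroupOf (Subgroup.centralizer ({d} : Set G))).Normal]
    (e : (Subgroup.centralizer ({d} : Set G)) ⧸
      (Subgroup.zpowers d).subgroupOf (Subgroup.centralizer ({d} : Set G)) ≃* Spor.Fi22)
    (hnwc : ∃ g : G, g * d * g⁻¹ ∈ Subgroup.centralizer ({d} : Set G) ∧ g * d * g⁻¹ ≠ d) :
    Nonempty (G ≃* Spor.Fi23) := by
  obtain ⟨h, π, D, hd1⟩ := exists_dc hd e
  have hn := nsq D
  obtain ⟨xs, g1, g2, g3⟩ := D.tuple hn Fi22.hev Fi22.hR (m := 10) (R1 := Y332.R)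
    (T := [(8, 9), (4, 8), (6, 7), (5, 6), (4, 5), (3, 4), (2, 3), (1, 2)])
    (r0 := rp 9 [1,2,3,4,5,6,8]) (by decide +kernel)
  obtain ⟨d2, ns, hs⟩ := D.coe hn hd1
  obtain ⟨c2, s2⟩ := hs xs fun q => by
    rw [funext g2]; exact exists_word Fi22.hev (Fi22.hX ▸ Subgroup.mem_top q)
  have hz : evL xs z = ⟨d, h⟩ := (D.ker _ (by
      rw [map_evL, funext g2]; exact Fi22.hR _ (by decide +kernel))).resolve_left fun e => by
    obtain ⟨ψ, hψ⟩ := Fi22.lift g1 fun r hr => (R22 r hr).elim (g3 r) fun e1 => e1 ▸ e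
    exact D.not_split hq (fun e => hd1 (congrArg Subtype.val e)) Fi22.hev Fi22.hX ψ fun l => by
      rw [hψ, g2]
  obtain ⟨F, hF, _⟩ := emb (xs := fun l => (xs l : G)) (g1.map (Subgroup.subtype _))
    (g3.map (Subgroup.subtype _)) ((map_evL (Subgroup.subtype _) xs z).symm.trans
      (congrArg Subtype.val hz)) d2 hd1 c2 s2 fun c => by
    have c' : Commute (xs 1) (xs 2) := Subtype.ext c
    have := c'.map π
    rw [g2, g2, commute_iff_sq (Fi22.hev.mul_self (m := 10) (by decide +kernel) 1)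
      (Fi22.hev.mul_self (m := 10) (by decide +kernel) 2)] at this
    exact Fi22.hφ.mov (bs := Fi22.bs) (w := [1, 2, 1, 2]) (by decide +kernel) (by simpa [evL] using this)
  obtain ⟨g, hg1, hg2⟩ := hnwc
  have hu : IsConj d (g * d * g⁻¹) := isConj_iff.mpr ⟨g, rfl⟩
  rcases hF.fuse lc ff.te d2 ns hu (Subgroup.mem_centralizer_singleton_iff.mp hg1) hg2 with
    ⟨k, _, e⟩ | ⟨k, k0, e⟩
  · exact of_emb hF d2 ns (hu.trans (e ▸ isConj_cj _ k).symm)
  · obtain ⟨θ, hθ, e1⟩ := twist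
    refine of_emb (hθ.comp hF) d2 ns ?_
    have a1 : Commute (evL ev k2) (evL ev z) := T.comm0 (by decide +kernel)
    have a2 : (evL ev k2)⁻¹ * evL ev [1] * evL ev k2 = evL ev [7] := by
      rw [← evL_invW hev, ← evL_append, ← evL_append]; exact T.eq (by decide +kernel)
    have a3 : Commute (evL ev [7]) (evL ev z) := T.comm0 (by decide +kernel)
    show IsConj d (F (θ (evL ev [1])))
    rw [e1, hF.mul _ _ a3 (Commute.refl _), hF.base, ← a2, hF.cj ff.te a1]
    refine (hu.trans (e ▸ isConj_cj _ k).symm).trans ?_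
    conv_rhs => rw [← cj_of_commute (hF.mem a1)]
    rw [show ∀ a b c : G, a⁻¹ * b * a * (a⁻¹ * c * a) = a⁻¹ * (b * c) * a from fun a b c => by group]
    exact isConj_cj _ _

end Cfsg.H6.Fi23R
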